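import Cfsg.Agent.H17.FV0
import Cfsg.Agent.H11.SL2Schur
import Cfsg.Agent.H11.LowDim

/-! S5720: the chunk `G4` (a minimal central cover of `SL₂(p)` is trivial). -/

set_option autoImplicit false
set_option linter.unusedVariables false

open H17.FV Cfsg
open scoped MatrixGroups

namespace H18.FY

universe u

theorem nt7 : ¬ NT SL(2, ZMod 7) := fun h => by
  have k : ∀ {a b : SL(2, ZMod 7)}, a.1 ≠ b.1 → a ≠ b := fun e f => e (congrArg _ f)
  have := h ⟨!![2, 0; 0, 4], by decide⟩ ⟨!![2, 2; 0, 4], by decide⟩ (by decide) (by decide)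
    (by decide) (k (by decide)) (k (by decide)) (k (by decide))
  exact k (by decide) this

theorem g4 : G4.{u} := by
  refine ⟨fun X _ _ p _ f hp h hz => ?_, nt7⟩
  have hc : commutator X = ⊤ := h.min _ (by
    rw [map_commutator_eq, MonoidHom.range_eq_top.2 h.surj]
    exact H11.sl2_perfect (by rw [ZMod.card]; omega))
  have hτ : IsStemExtension f := ⟨h.surj, hz, hc ▸ le_top⟩
  refine (MonoidHom.ker_eq_bot_iff f).1 (H11.ker_eq_bot_of_forall_prime f fun l hl => ?_)
  by_cases e : l = p
  · subst e
    have c : Nat.card (upperUnipotentSL2 (ZMod l)) = l := by rw [H11.card_upper, Nat.card_zmod]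
    have g : IsPGroup l (upperUnipotentSL2 (ZMod l)) := IsPGroup.of_card (n := 1) (by rw [c, pow_one])
    have : IsCyclic (g.toSylow (H11.not_dvd_index_upper l)) := isCyclic_of_prime_card c
    exact H23.not_dvd_card_ker_of_isCyclic hτ (g.toSylow (H11.not_dvd_index_upper l))
  · exact H11.sl2_not_dvd_of_ne hτ p hl e

end H18.FY
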